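import Cfsg.Agent.Screen.CosetEnum.Fi23Mult.BRT.FCheck8

/-!
# Checking the table
-/

set_option autoImplicit false
set_option maxRecDepth 20000

namespace Cfsg.Agent.Screen.CosetEnum.Fi23Mult.BRT

open Cfsg.Agent.Screen.CosetEnum

set_option Elab.async false

theorem fcheck240 : blocks tbl.toCert 40 9600 = true := by decide +kernel

theorem fcheck241 : blocks tbl.toCert 40 9640 = true := by decide +kernel

theorem fcheck242 : blocks tbl.toCert 40 9680 = true := by decide +kernel

theorem fcheck243 : blocks tbl.toCert 40 9720 = true := by decide +kernel

theorem fcheck244 : blocks tbl.toCert 40 9760 = true := by decide +kernel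

theorem fcheck245 : blocks tbl.toCert 40 9800 = true := by decide +kernel

theorem fcheck246 : blocks tbl.toCert 40 9840 = true := by decide +kernel

theorem fcheck247 : blocks tbl.toCert 40 9880 = true := by decide +kernel

theorem fcheck248 : blocks tbl.toCert 40 9920 = true := by decide +kernel

theorem fcheck249 : blocks tbl.toCert 40 9960 = true := by decide +kernel

theorem fcheck250 : blocks tbl.toCert 30 10000 = true := by decide +kernel

end Cfsg.Agent.Screen.CosetEnum.Fi23Mult.BRT
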