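import Cfsg.Agent.Screen.CosetEnum.Fi23Mult.BRT.FCheck0

/-!
# Checking the table
-/

set_option autoImplicit false
set_option maxRecDepth 20000

namespace Cfsg.Agent.Screen.CosetEnum.Fi23Mult.BRT

open Cfsg.Agent.Screen.CosetEnum

set_option Elab.async false

theorem fcheck48 : blocks tbl.toCert 40 1920 = true := by decide +kernel

theorem fcheck49 : blocks tbl.toCert 40 1960 = true := by decide +kernel

theorem fcheck50 : blocks tbl.toCert 40 2000 = true := by decide +kernel

theorem fcheck51 : blocks tbl.toCert 40 2040 = true := by decide +kernel

theorem fcheck52 : blocks tbl.toCert 40 2080 = true := by decide +kernel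

theorem fcheck53 : blocks tbl.toCert 40 2120 = true := by decide +kernel

theorem fcheck54 : blocks tbl.toCert 40 2160 = true := by decide +kernel

theorem fcheck55 : blocks tbl.toCert 40 2200 = true := by decide +kernel

theorem fcheck56 : blocks tbl.toCert 40 2240 = true := by decide +kernel

theorem fcheck57 : blocks tbl.toCert 40 2280 = true := by decide +kernel

theorem fcheck58 : blocks tbl.toCert 40 2320 = true := by decide +kernel

theorem fcheck59 : blocks tbl.toCert 40 2360 = true := by decide +kernel

theorem fcheck60 : blocks tbl.toCert 40 2400 = true := by decide +kernel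

theorem fcheck61 : blocks tbl.toCert 40 2440 = true := by decide +kernel

theorem fcheck62 : blocks tbl.toCert 40 2480 = true := by decide +kernel

theorem fcheck63 : blocks tbl.toCert 40 2520 = true := by decide +kernel

theorem fcheck64 : blocks tbl.toCert 40 2560 = true := by decide +kernel

theorem fcheck65 : blocks tbl.toCert 40 2600 = true := by decide +kernel

theorem fcheck66 : blocks tbl.toCert 40 2640 = true := by decide +kernel

theorem fcheck67 : blocks tbl.toCert 40 2680 = true := by decide +kernel

theorem fcheck68 : blocks tbl.toCert 40 2720 = true := by decide +kernel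

theorem fcheck69 : blocks tbl.toCert 40 2760 = true := by decide +kernel

theorem fcheck70 : blocks tbl.toCert 40 2800 = true := by decide +kernel

theorem fcheck71 : blocks tbl.toCert 40 2840 = true := by decide +kernel

end Cfsg.Agent.Screen.CosetEnum.Fi23Mult.BRT
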