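import Cfsg.Agent.Screen.CosetEnum.Fi23Mult.BRT.FCheck2

/-!
# Checking the table
-/

set_option autoImplicit false
set_option maxRecDepth 20000

namespace Cfsg.Agent.Screen.CosetEnum.Fi23Mult.BRT

open Cfsg.Agent.Screen.CosetEnum

set_option Elab.async false

theorem fcheck96 : blocks tbl.toCert 40 3840 = true := by decide +kernel

theorem fcheck97 : blocks tbl.toCert 40 3880 = true := by decide +kernel

theorem fcheck98 : blocks tbl.toCert 40 3920 = true := by decide +kernel

theorem fcheck99 : blocks tbl.toCert 40 3960 = true := by decide +kernel

theorem fcheck100 : blocks tbl.toCert 40 4000 = true := by decide +kernel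

theorem fcheck101 : blocks tbl.toCert 40 4040 = true := by decide +kernel

theorem fcheck102 : blocks tbl.toCert 40 4080 = true := by decide +kernel

theorem fcheck103 : blocks tbl.toCert 40 4120 = true := by decide +kernel

theorem fcheck104 : blocks tbl.toCert 40 4160 = true := by decide +kernel

theorem fcheck105 : blocks tbl.toCert 40 4200 = true := by decide +kernel

theorem fcheck106 : blocks tbl.toCert 40 4240 = true := by decide +kernel

theorem fcheck107 : blocks tbl.toCert 40 4280 = true := by decide +kernel

theorem fcheck108 : blocks tbl.toCert 40 4320 = true := by decide +kernel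

theorem fcheck109 : blocks tbl.toCert 40 4360 = true := by decide +kernel

theorem fcheck110 : blocks tbl.toCert 40 4400 = true := by decide +kernel

theorem fcheck111 : blocks tbl.toCert 40 4440 = true := by decide +kernel

theorem fcheck112 : blocks tbl.toCert 40 4480 = true := by decide +kernel

theorem fcheck113 : blocks tbl.toCert 40 4520 = true := by decide +kernel

theorem fcheck114 : blocks tbl.toCert 40 4560 = true := by decide +kernel

theorem fcheck115 : blocks tbl.toCert 40 4600 = true := by decide +kernel

theorem fcheck116 : blocks tbl.toCert 40 4640 = true := by decide +kernel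

theorem fcheck117 : blocks tbl.toCert 40 4680 = true := by decide +kernel

theorem fcheck118 : blocks tbl.toCert 40 4720 = true := by decide +kernel

theorem fcheck119 : blocks tbl.toCert 40 4760 = true := by decide +kernel

end Cfsg.Agent.Screen.CosetEnum.Fi23Mult.BRT
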