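import Cfsg.Agent.Screen.CosetEnum.Fi23Mult.BRT.FCheck4

/-!
# Checking the table
-/

set_option autoImplicit false
set_option maxRecDepth 20000

namespace Cfsg.Agent.Screen.CosetEnum.Fi23Mult.BRT

open Cfsg.Agent.Screen.CosetEnum

set_option Elab.async false

theorem fcheck144 : blocks tbl.toCert 40 5760 = true := by decide +kernel

theorem fcheck145 : blocks tbl.toCert 40 5800 = true := by decide +kernel

theorem fcheck146 : blocks tbl.toCert 40 5840 = true := by decide +kernel

theorem fcheck147 : blocks tbl.toCert 40 5880 = true := by decide +kernel

theorem fcheck148 : blocks tbl.toCert 40 5920 = true := by decide +kernel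

theorem fcheck149 : blocks tbl.toCert 40 5960 = true := by decide +kernel

theorem fcheck150 : blocks tbl.toCert 40 6000 = true := by decide +kernel

theorem fcheck151 : blocks tbl.toCert 40 6040 = true := by decide +kernel

theorem fcheck152 : blocks tbl.toCert 40 6080 = true := by decide +kernel

theorem fcheck153 : blocks tbl.toCert 40 6120 = true := by decide +kernel

theorem fcheck154 : blocks tbl.toCert 40 6160 = true := by decide +kernel

theorem fcheck155 : blocks tbl.toCert 40 6200 = true := by decide +kernel

theorem fcheck156 : blocks tbl.toCert 40 6240 = true := by decide +kernel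

theorem fcheck157 : blocks tbl.toCert 40 6280 = true := by decide +kernel

theorem fcheck158 : blocks tbl.toCert 40 6320 = true := by decide +kernel

theorem fcheck159 : blocks tbl.toCert 40 6360 = true := by decide +kernel

theorem fcheck160 : blocks tbl.toCert 40 6400 = true := by decide +kernel

theorem fcheck161 : blocks tbl.toCert 40 6440 = true := by decide +kernel

theorem fcheck162 : blocks tbl.toCert 40 6480 = true := by decide +kernel

theorem fcheck163 : blocks tbl.toCert 40 6520 = true := by decide +kernel

theorem fcheck164 : blocks tbl.toCert 40 6560 = true := by decide +kernel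

theorem fcheck165 : blocks tbl.toCert 40 6600 = true := by decide +kernel

theorem fcheck166 : blocks tbl.toCert 40 6640 = true := by decide +kernel

theorem fcheck167 : blocks tbl.toCert 40 6680 = true := by decide +kernel

end Cfsg.Agent.Screen.CosetEnum.Fi23Mult.BRT
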