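import Cfsg.Agent.Screen.CosetEnum.Fi23Mult.BRT.FCheck5

/-!
# Checking the table
-/

set_option autoImplicit false
set_option maxRecDepth 20000

namespace Cfsg.Agent.Screen.CosetEnum.Fi23Mult.BRT

open Cfsg.Agent.Screen.CosetEnum

set_option Elab.async false

theorem fcheck168 : blocks tbl.toCert 40 6720 = true := by decide +kernel

theorem fcheck169 : blocks tbl.toCert 40 6760 = true := by decide +kernel

theorem fcheck170 : blocks tbl.toCert 40 6800 = true := by decide +kernel

theorem fcheck171 : blocks tbl.toCert 40 6840 = true := by decide +kernel

theorem fcheck172 : blocks tbl.toCert 40 6880 = true := by decide +kernel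

theorem fcheck173 : blocks tbl.toCert 40 6920 = true := by decide +kernel

theorem fcheck174 : blocks tbl.toCert 40 6960 = true := by decide +kernel

theorem fcheck175 : blocks tbl.toCert 40 7000 = true := by decide +kernel

theorem fcheck176 : blocks tbl.toCert 40 7040 = true := by decide +kernel

theorem fcheck177 : blocks tbl.toCert 40 7080 = true := by decide +kernel

theorem fcheck178 : blocks tbl.toCert 40 7120 = true := by decide +kernel

theorem fcheck179 : blocks tbl.toCert 40 7160 = true := by decide +kernel

theorem fcheck180 : blocks tbl.toCert 40 7200 = true := by decide +kernel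

theorem fcheck181 : blocks tbl.toCert 40 7240 = true := by decide +kernel

theorem fcheck182 : blocks tbl.toCert 40 7280 = true := by decide +kernel

theorem fcheck183 : blocks tbl.toCert 40 7320 = true := by decide +kernel

theorem fcheck184 : blocks tbl.toCert 40 7360 = true := by decide +kernel

theorem fcheck185 : blocks tbl.toCert 40 7400 = true := by decide +kernel

theorem fcheck186 : blocks tbl.toCert 40 7440 = true := by decide +kernel

theorem fcheck187 : blocks tbl.toCert 40 7480 = true := by decide +kernel

theorem fcheck188 : blocks tbl.toCert 40 7520 = true := by decide +kernel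

theorem fcheck189 : blocks tbl.toCert 40 7560 = true := by decide +kernel

theorem fcheck190 : blocks tbl.toCert 40 7600 = true := by decide +kernel

theorem fcheck191 : blocks tbl.toCert 40 7640 = true := by decide +kernel

end Cfsg.Agent.Screen.CosetEnum.Fi23Mult.BRT
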