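import Cfsg.Agent.Screen.CosetEnum.Fi23Mult.BRT.Data
import Cfsg.Agent.Screen.CosetEnum.Linked

/-!
# Checking the table
-/

set_option autoImplicit false
set_option maxRecDepth 20000

namespace Cfsg.Agent.Screen.CosetEnum.Fi23Mult.BRT

open Cfsg.Agent.Screen.CosetEnum

set_option Elab.async false

theorem rcheck0 : tbl.linkRows 600 0 = true := by decide +kernel

theorem rcheck1 : tbl.linkRows 600 600 = true := by decide +kernel

theorem rcheck2 : tbl.linkRows 600 1200 = true := by decide +kernel

theorem rcheck3 : tbl.linkRows 600 1800 = true := by decide +kernel

theorem rcheck4 : tbl.linkRows 600 2400 = true := by decide +kernel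

theorem rcheck5 : tbl.linkRows 600 3000 = true := by decide +kernel

theorem rcheck6 : tbl.linkRows 600 3600 = true := by decide +kernel

theorem rcheck7 : tbl.linkRows 600 4200 = true := by decide +kernel

theorem rcheck8 : tbl.linkRows 600 4800 = true := by decide +kernel

theorem rcheck9 : tbl.linkRows 600 5400 = true := by decide +kernel

theorem rcheck10 : tbl.linkRows 600 6000 = true := by decide +kernel

theorem rcheck11 : tbl.linkRows 600 6600 = true := by decide +kernel

theorem rcheck12 : tbl.linkRows 600 7200 = true := by decide +kernel

theorem rcheck13 : tbl.linkRows 600 7800 = true := by decide +kernel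

theorem rcheck14 : tbl.linkRows 600 8400 = true := by decide +kernel

theorem rcheck15 : tbl.linkRows 600 9000 = true := by decide +kernel

theorem rcheck16 : tbl.linkRows 600 9600 = true := by decide +kernel

theorem rcheck17 : tbl.linkRows 600 10200 = true := by decide +kernel

theorem rcheck18 : tbl.linkRows 600 10800 = true := by decide +kernel

theorem rcheck19 : tbl.linkRows 600 11400 = true := by decide +kernel

theorem rcheck20 : tbl.linkRows 600 12000 = true := by decide +kernel

theorem rcheck21 : tbl.linkRows 600 12600 = true := by decide +kernel

theorem rcheck22 : tbl.linkRows 600 13200 = true := by decide +kernel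

theorem rcheck23 : tbl.linkRows 600 13800 = true := by decide +kernel

end Cfsg.Agent.Screen.CosetEnum.Fi23Mult.BRT
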